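import Cfsg.Agent.TwoGroups.OmegaSevenThree.Elems

/-!
# A conjugation invariant: how `(g-1) v` and `(g-1)² v` behave over all vectors `v`
-/

set_option autoImplicit false
set_option maxRecDepth 20000

namespace Cfsg.Agent.TwoGroups.OmegaSevenThree

open Matrix

def dot (r v : R7) : ℕ :=
  (r.a * v.a + r.b * v.b + r.c * v.c + r.d * v.d + r.e * v.e + r.f * v.f + r.g * v.g) % 3

def app (A : M7) (v : R7) : R7 :=
  ⟨dot A.r0 v, dot A.r1 v, dot A.r2 v, dot A.r3 v, dot A.r4 v, dot A.r5 v, dot A.r6 v⟩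

def sub3 (v w : R7) : R7 :=
  ⟨(v.a + 2 * w.a) % 3, (v.b + 2 * w.b) % 3, (v.c + 2 * w.c) % 3, (v.d + 2 * w.d) % 3,
   (v.e + 2 * w.e) % 3, (v.f + 2 * w.f) % 3, (v.g + 2 * w.g) % 3⟩

def zero7 : R7 := ⟨0, 0, 0, 0, 0, 0, 0⟩

/-- The type of a vector for a matrix. -/
def cls (A : M7) (v : R7) : ℕ :=
  let w := sub3 (app A v) v
  if w = zero7 then 0
  else if sub3 (app A w) w = zero7 then 4
  else (2 * dot w (app gram w)) % 3 + 1

def digits (k : ℕ) : R7 :=
  ⟨k % 3, k / 3 % 3, k / 9 % 3, k / 27 % 3, k / 81 % 3, k / 243 % 3, k / 729 % 3⟩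

/-- The number of vectors of type `c`. -/
def sigCount (A : M7) (c : ℕ) : ℕ := (List.range 2187).countP fun k => decide (cls A (digits k) = c)

/-- The vector of a row. -/
def toV (r : R7) : Fin 7 → K := fun i => (r.get i : K)

theorem toV_app (A : M7) (v : R7) : toV (app A v) = A.toM *ᵥ toV v := by
  funext i
  rw [Matrix.mulVec, dotProduct, Fin.sum_univ_seven]
  fin_cases i <;> simp [toV, app, dot, toM_apply, M7.get, M7.row, R7.get, ZMod.natCast_mod]

theorem toV_sub3 (v w : R7) : toV (sub3 v w) = toV v - toV w := by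
  funext i
  have h : (2 : K) = -1 := by decide
  fin_cases i <;> simp [toV, sub3, R7.get, ZMod.natCast_mod, h, sub_eq_add_neg]

theorem toV_sub3_eq_zero (v w : R7) : toV (sub3 v w) = 0 ↔ sub3 v w = zero7 := by
  constructor
  · intro h
    have key : ∀ n : ℕ, ((n % 3 : ℕ) : K) = 0 → n % 3 = 0 := fun n hn => by
      have := congrArg ZMod.val hn
      rwa [ZMod.val_natCast, Nat.mod_mod, ZMod.val_zero] at this
    have h0 := key _ (congrFun h 0)
    have h1 := key _ (congrFun h 1)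
    have h2 := key _ (congrFun h 2)
    have h3 := key _ (congrFun h 3)
    have h4 := key _ (congrFun h 4)
    have h5 := key _ (congrFun h 5)
    have h6 := key _ (congrFun h 6)
    simp [sub3, zero7, h0, h1, h2, h3, h4, h5, h6]
  · intro h
    rw [h]
    funext i
    fin_cases i <;> simp [toV, zero7, R7.get]

/-- The type of a vector, over the field. -/
def clsM (X : Matrix (Fin 7) (Fin 7) K) (v : Fin 7 → K) : ℕ :=
  if X *ᵥ v - v = 0 then 0
  else if X *ᵥ (X *ᵥ v - v) - (X *ᵥ v - v) = 0 then 4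
  else (2 * ((X *ᵥ v - v) ⬝ᵥ (gram.toM *ᵥ (X *ᵥ v - v))) : K).val + 1

theorem toV_dot (r v : R7) : (dot r v : K) = toV r ⬝ᵥ toV v := by
  rw [dotProduct, Fin.sum_univ_seven]
  simp [toV, dot, R7.get, ZMod.natCast_mod]

theorem clsM_toV (A : M7) (v : R7) : clsM A.toM (toV v) = cls A v := by
  unfold clsM cls
  simp only [← toV_app, ← toV_sub3, toV_sub3_eq_zero, ← toV_dot]
  split_ifs <;> try rfl
  rw [show (2 : K) * ((dot (sub3 (app A v) v) (app gram (sub3 (app A v) v)) : ℕ) : K) =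
      ((2 * dot (sub3 (app A v) v) (app gram (sub3 (app A v) v)) : ℕ) : K) by push_cast; ring,
    ZMod.val_natCast]

/-- Vectors as numbers below `2187`. -/
def vecE : (Fin 7 → K) ≃ Fin 2187 :=
  (finFunctionFinEquiv : (Fin 7 → Fin 3) ≃ Fin (3 ^ 7)).trans (finCongr (by norm_num))

theorem vecE_symm (k : Fin 2187) : vecE.symm k = toV (digits k) := by
  funext i
  refine (ZMod.natCast_zmod_val _).symm.trans (congrArg _ ?_)
  change (k : ℕ) / 3 ^ (i : ℕ) % 3 = (digits k).get i
  fin_cases i <;> simp [digits, R7.get]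

theorem card_cls (A : M7) (c : ℕ) : Nat.card {v : Fin 7 → K // clsM A.toM v = c} = sigCount A c := by
  rw [Nat.card_congr (vecE.subtypeEquiv (p := fun v => clsM A.toM v = c)
      (q := fun k : Fin 2187 => cls A (digits k) = c) fun v => by
        rw [← clsM_toV, ← vecE_symm, Equiv.symm_apply_apply]),
    Nat.card_congr (⟨fun k => ⟨k.1.1, k.1.2, k.2⟩, fun k => ⟨⟨k.1, k.2.1⟩, k.2.2⟩, fun _ => rfl,
      fun _ => rfl⟩ : {k : Fin 2187 // cls A (digits k) = c} ≃ {k // k < 2187 ∧ cls A (digits k) = c}),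
    Nat.subtype_card ((Finset.range 2187).filter fun k => cls A (digits k) = c) (by simp),
    ← Nat.count_eq_card_filter_range]
  rfl

theorem mat_inv_mulVec (h : O7) (v : Fin 7 → K) : mat h⁻¹ *ᵥ (mat h *ᵥ v) = v := by
  rw [Matrix.mulVec_mulVec, ← map_mul, inv_mul_cancel, map_one, Matrix.one_mulVec]

theorem mulVec_mat_inv (h : O7) (v : Fin 7 → K) : mat h *ᵥ (mat h⁻¹ *ᵥ v) = v := by
  rw [Matrix.mulVec_mulVec, ← map_mul, mul_inv_cancel, map_one, Matrix.one_mulVec]

theorem clsM_conj {h x y : O7} (e : h * x = y * h) (v : Fin 7 → K) :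
    clsM (mat y) (mat h *ᵥ v) = clsM (mat x) v := by
  have hm : ∀ w, mat y *ᵥ (mat h *ᵥ w) - mat h *ᵥ w = mat h *ᵥ (mat x *ᵥ w - w) := by
    intro w
    rw [Matrix.mulVec_sub, Matrix.mulVec_mulVec, Matrix.mulVec_mulVec, ← map_mul, ← map_mul, e]
  have hz : ∀ w, mat h *ᵥ w = 0 ↔ w = 0 := fun w =>
    ⟨fun hw => by rw [← mat_inv_mulVec h w, hw, Matrix.mulVec_zero], fun hw => by rw [hw, Matrix.mulVec_zero]⟩
  have hq : ∀ w, (mat h *ᵥ w) ⬝ᵥ (gram.toM *ᵥ (mat h *ᵥ w)) = w ⬝ᵥ (gram.toM *ᵥ w) := fun w => by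
    rw [dot_sym, gram_of_mem]
  unfold clsM
  simp only [hm, hz, hq]

theorem sigCount_eq {h x y : O7} {A B : M7} (hx : mat x = A.toM) (hy : mat y = B.toM) (e : h * x = y * h)
    (c : ℕ) : sigCount A c = sigCount B c := by
  rw [← card_cls, ← card_cls, ← hx, ← hy]
  exact Nat.card_congr (Equiv.subtypeEquiv
    ⟨fun v => mat h *ᵥ v, fun v => mat h⁻¹ *ᵥ v, mat_inv_mulVec h, mulVec_mat_inv h⟩
    fun v => by simp [clsM_conj e])

/-- The invariant separates all representatives except the first two. -/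
theorem rep_eq_of_conj {i j : ℕ} (hi : i < 7) (hj : j < 7) {h : O7} (e : h * rep i = rep j * h) :
    i = j ∨ (i < 2 ∧ j < 2) := by
  have hs : ∀ c, sigCount (repTab.getD i eye) c = sigCount (repTab.getD j eye) c :=
    sigCount_eq (mat_rep i) (mat_rep j) e
  have hv : ((List.range 7).all fun i => decide
      (([sigCount (repTab.getD i eye) 0, sigCount (repTab.getD i eye) 2, sigCount (repTab.getD i eye) 3] : List ℕ) =
        ([[27, 1458, 0], [27, 1458, 0], [243, 0, 0], [243, 1458, 0], [27, 486, 486], [243, 0, 1458],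
          [27, 972, 972]] : List (List ℕ)).getD i [])) = true := by decide +kernel
  have h1 := of_decide_eq_true (List.all_eq_true.1 hv i (List.mem_range.2 hi))
  have h2 := of_decide_eq_true (List.all_eq_true.1 hv j (List.mem_range.2 hj))
  rw [hs, hs, hs, h2] at h1
  interval_cases i <;> interval_cases j <;> simp at h1 ⊢

end Cfsg.Agent.TwoGroups.OmegaSevenThree
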