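import Cfsg.Agent.TwoGroups.OmegaSevenThree.Cover
import Cfsg.Agent.TwoGroups.OmegaSevenThree.Invariant
import Cfsg.Agent.TwoGroups.OmegaSevenThree.Split

/-!
# Ω₇(3) has seven classes of subgroups of order three
-/

set_option autoImplicit false

namespace Cfsg.Agent.TwoGroups.OmegaSevenThree

/-- Representatives in `Ω`. -/
def repOm (i : Fin 7) : Om := ⟨rep i, rep_mem i⟩

theorem orderOf_repOm (i : Fin 7) : orderOf (repOm i) = 3 := by
  haveI : Fact (Nat.Prime 3) := ⟨Nat.prime_three⟩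
  obtain ⟨h3, h1⟩ := rep_cube i.isLt
  exact orderOf_eq_prime (Subtype.ext h3) fun h => h1 (congrArg Subtype.val h)

theorem eq_of_conj {i j : Fin 7} {h : Om} (e : h * repOm i = repOm j * h) : i = j := by
  have e' : (h : O7) * rep i = rep j * (h : O7) := congrArg Subtype.val e
  rcases rep_eq_of_conj i.isLt j.isLt e' with hij | ⟨hi, hj⟩
  · exact Fin.ext hij
  · by_contra hne
    have : ((i : ℕ) = 0 ∧ (j : ℕ) = 1) ∨ ((i : ℕ) = 1 ∧ (j : ℕ) = 0) := by
      have : (i : ℕ) ≠ j := fun h => hne (Fin.ext h)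
      omega
    rcases this with ⟨a, b⟩ | ⟨a, b⟩ <;> rw [a, b] at e'
    · exact not_conj_twin ⟨h, h.2, e'⟩
    · exact not_conj_twin ⟨(h : O7)⁻¹, inv_mem h.2, by
        rw [inv_mul_eq_iff_eq_mul, ← mul_assoc, e', mul_inv_cancel_right]⟩

theorem eq_of_subgroup_conj {i j : Fin 7} {h : Om}
    (e : h * repOm i * h⁻¹ ∈ Subgroup.zpowers (repOm j)) : i = j := by
  classical
  rw [mem_zpowers_iff_mem_range_orderOf, orderOf_repOm] at e
  simp only [Finset.mem_image, Finset.mem_range] at e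
  obtain ⟨k, hk, ek⟩ := e
  interval_cases k
  · rw [pow_zero] at ek
    have := orderOf_repOm i
    rw [conj_eq_one_iff.1 ek.symm, orderOf_one] at this
    norm_num at this
  · rw [pow_one] at ek
    exact eq_of_conj (h := h) (by rw [ek, inv_mul_cancel_right])
  · obtain ⟨c, hc, ec⟩ := rep_square j.isLt
    have ec' : (⟨c, hc⟩ : Om) * repOm j ^ 2 = repOm j * ⟨c, hc⟩ := Subtype.ext (by
      rw [pow_two]; exact ec)
    refine eq_of_conj (h := ⟨c, hc⟩ * h) ?_
    rw [mul_assoc, show h * repOm i = repOm j ^ 2 * h by rw [ek, inv_mul_cancel_right], ← mul_assoc, ec',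
      mul_assoc]

theorem seven_classes_om : ∃ Y : Fin 7 → Subgroup Om, (∀ i, Nat.card (Y i) = 3) ∧
    (∀ i j, (∃ g : Om, (Y i).map (MulAut.conj g).toMonoidHom = Y j) → i = j) ∧
    (∀ X : Subgroup Om, Nat.card X = 3 → ∃ i, ∃ g : Om, X.map (MulAut.conj g).toMonoidHom = Y i) := by
  haveI : Fact (Nat.Prime 3) := ⟨Nat.prime_three⟩
  refine ⟨fun i => Subgroup.zpowers (repOm i), fun i => by rw [Nat.card_zpowers, orderOf_repOm], ?_, ?_⟩
  · rintro i j ⟨g, hg⟩
    refine eq_of_subgroup_conj (h := g) ?_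
    simp only at hg
    rw [← hg]
    exact Subgroup.mem_map_of_mem _ (Subgroup.mem_zpowers _)
  · intro X hX
    haveI : Finite X := Nat.finite_of_card_ne_zero (by omega)
    obtain ⟨x, hx⟩ := exists_prime_orderOf_dvd_card' (G := X) 3 (by rw [hX])
    have hox : orderOf (x : Om) = 3 := by rw [Subgroup.orderOf_coe, hx]
    have hXz : X = Subgroup.zpowers (x : Om) :=
      (Subgroup.eq_of_le_of_card_ge (Subgroup.zpowers_le.2 x.2) (by rw [Nat.card_zpowers, hox, hX])).symm
    obtain ⟨i, hi, h, hh, e⟩ := hasRep_of_cube (x : Om).2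
      (congrArg Subtype.val (hox ▸ pow_orderOf_eq_one (x : Om)))
      (fun h1 => by
        have : (x : Om) = 1 := Subtype.ext h1
        rw [this, orderOf_one] at hox
        norm_num at hox)
    refine ⟨⟨i, hi⟩, ⟨h, hh⟩, ?_⟩
    rw [hXz, MonoidHom.map_zpowers]
    congr 1
    exact mul_inv_eq_iff_eq_mul.2 (Subtype.ext e)

/-- Transport along `Ω ≅ PΩ`. -/
theorem seven_classes : ∃ Y : Fin 7 → Subgroup (Cfsg.POmega K ⇑Qd), (∀ i, Nat.card (Y i) = 3) ∧
    (∀ i j, (∃ g : Cfsg.POmega K ⇑Qd, (Y i).map (MulAut.conj g).toMonoidHom = Y j) → i = j) ∧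
    (∀ X : Subgroup (Cfsg.POmega K ⇑Qd), Nat.card X = 3 → ∃ i, ∃ g : Cfsg.POmega K ⇑Qd,
      X.map (MulAut.conj g).toMonoidHom = Y i) := by
  obtain ⟨Y, h1, h2, h3⟩ := seven_classes_om
  let e : Om ≃* Cfsg.POmega K ⇑Qd := MulEquiv.ofBijective (QuotientGroup.mk' (Subgroup.center ↥Om))
    ⟨(MonoidHom.ker_eq_bot_iff _).1 (by rw [QuotientGroup.ker_mk']; exact center_om),
      QuotientGroup.mk'_surjective _⟩
  have key : ∀ (g : Om) (H : Subgroup Om),
      (H.map e.toMonoidHom).map (MulAut.conj (e g)).toMonoidHom =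
        (H.map (MulAut.conj g).toMonoidHom).map e.toMonoidHom := by
    intro g H
    rw [Subgroup.map_map, Subgroup.map_map]
    refine congrArg (fun φ => H.map φ) (MonoidHom.ext fun x => ?_)
    simp
  refine ⟨fun i => (Y i).map e.toMonoidHom, fun i => by
    rw [Subgroup.card_map_of_injective (f := e.toMonoidHom) e.injective, h1], ?_, ?_⟩
  · rintro i j ⟨g, hg⟩
    obtain ⟨g, rfl⟩ := e.surjective g
    rw [key] at hg
    exact h2 i j ⟨g, Subgroup.map_injective (f := e.toMonoidHom) e.injective hg⟩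
  · intro X hX
    have hX' : X = (X.comap e.toMonoidHom).map e.toMonoidHom :=
      (Subgroup.map_comap_eq_self_of_surjective e.surjective X).symm
    obtain ⟨i, g, hg⟩ := h3 (X.comap e.toMonoidHom) (by
      rw [hX', Subgroup.card_map_of_injective (f := e.toMonoidHom) e.injective] at hX
      exact hX)
    refine ⟨i, e g, ?_⟩
    rw [hX', key, hg]

end Cfsg.Agent.TwoGroups.OmegaSevenThree
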