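import Cfsg.Agent.TwoGroups.OmegaSevenThree.Elems

/-!
# Each element of order three of Ω₇(3) is conjugate to one of seven

The Sylow three-subgroup is `Q U` for the radical `Q` of a point stabiliser and a Sylow subgroup `U`
of its Levi complement.
-/

set_option autoImplicit false
set_option maxRecDepth 20000

namespace Cfsg.Agent.TwoGroups.OmegaSevenThree

open scoped Pointwise

/-- Generators of the radical. -/
def qg (j : ℕ) : O7 := wordOf gen (genW.getD j [])

theorem mat_qg (j : ℕ) : mat (qg j) = (qGens.getD j eye).toM := mat_tabled mat_gen (by decide +kernel) j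

/-- Elements of the radical. -/
def qel (k : ℕ) : O7 := wordOf qg (qWord.getD k [])

theorem mat_qel (k : ℕ) : mat (qel k) = (qTab.getD k eye).toM := mat_tabled mat_qg (by decide +kernel) k

def uGens : List M7 := [genTab.getD 1 eye, genTab.getD 2 eye]

/-- Generators of the complement. -/
def ug (j : ℕ) : O7 := wordOf gen (([[1], [2]] : List (List ℕ)).getD j [])

theorem mat_ug (j : ℕ) : mat (ug j) = (uGens.getD j eye).toM := mat_tabled mat_gen (by decide +kernel) j

/-- Elements of the complement. -/
def uel (k : ℕ) : O7 := wordOf ug (uWord.getD k [])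

theorem mat_uel (k : ℕ) : mat (uel k) = (uTab.getD k eye).toM := mat_tabled mat_ug (by decide +kernel) k

theorem qg_mem (j : ℕ) : qg j ∈ Om := wordOf_mem fun k _ => gen_mem k

theorem qel_mem_om (k : ℕ) : qel k ∈ Om := wordOf_mem fun j _ => qg_mem j

theorem uel_mem_om (k : ℕ) : uel k ∈ Om := wordOf_mem fun _ _ => wordOf_mem fun i _ => gen_mem i

/-- A table closed under right multiplication contains the generated subgroup. -/
theorem closure_le_table {n N : ℕ} {g el : ℕ → O7} {G E : List M7} {W : List (List ℕ)}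
    {next : List (List ℕ)} (hg : ∀ j, mat (g j) = (G.getD j eye).toM)
    (hel : ∀ k, mat (el k) = (E.getD k eye).toM) (hN : 0 < N)
    (h0 : E.getD 0 eye = eye) (hW : W = next)
    (hcl : ((List.range N).all fun k => (List.range n).all fun j =>
      decide ((W.getD k []).getD j 0 < N) &&
        decide ((E.getD k eye).mul (G.getD j eye) = E.getD ((W.getD k []).getD j 0) eye)) = true)
    (h3 : ((List.range n).all fun j =>
      decide ((G.getD j eye).mul ((G.getD j eye).mul (G.getD j eye)) = eye)) = true)
    {x : O7} (hx : x ∈ Subgroup.closure (Set.range fun j : Fin n => g j)) : ∃ k < N, x = el k := by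
  subst hW
  have step : ∀ k < N, ∀ j < n, ∃ k' < N, el k * g j = el k' := by
    intro k hk j hj
    have := List.all_eq_true.1 (List.all_eq_true.1 hcl k (List.mem_range.2 hk)) j (List.mem_range.2 hj)
    simp only [Bool.and_eq_true, decide_eq_true_eq] at this
    exact ⟨_, this.1, eq_of_mat (mat_mul_toM (hel k) (hg j)) (hel _) this.2⟩
  induction hx using Subgroup.closure_induction_right with
  | one => exact ⟨0, hN, eq_of_mat (by rw [map_one, toM_eye]) (hel 0) h0.symm⟩
  | mul_right a _ b hb ih =>
    obtain ⟨j, rfl⟩ := hb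
    obtain ⟨k, hk, rfl⟩ := ih
    exact step k hk j j.isLt
  | mul_inv_cancel a _ b hb ih =>
    obtain ⟨j, rfl⟩ := hb
    obtain ⟨k, hk, rfl⟩ := ih
    have h : g (j : ℕ) * (g j * g j) = 1 := by
      refine eq_of_mat (mat_mul_toM (hg j) (mat_mul_toM (hg j) (hg j))) (by rw [map_one, toM_eye]) ?_
      simpa using List.all_eq_true.1 h3 j (List.mem_range.2 j.isLt)
    rw [inv_eq_of_mul_eq_one_right h, ← mul_assoc]
    obtain ⟨k₁, hk₁, e₁⟩ := step k hk j j.isLt
    rw [e₁]
    exact step k₁ hk₁ j j.isLt

/-- The radical. -/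
def Qs : Subgroup O7 := Subgroup.closure (Set.range fun j : Fin 5 => qg j)

/-- The complement. -/
def Us : Subgroup O7 := Subgroup.closure (Set.range fun j : Fin 2 => ug j)

theorem exists_qel {x : O7} (hx : x ∈ Qs) : ∃ k < 243, x = qel k :=
  closure_le_table (next := qNext) mat_qg mat_qel (by norm_num) (by decide +kernel) rfl (by decide +kernel)
    (by decide +kernel) hx

theorem exists_uel {x : O7} (hx : x ∈ Us) : ∃ k < 81, x = uel k :=
  closure_le_table (next := uNext) mat_ug mat_uel (by norm_num) (by decide +kernel) rfl (by decide +kernel)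
    (by decide +kernel) hx

theorem qel_mem {k : ℕ} (hk : k < 243) : qel k ∈ Qs := by
  have h : ((List.range 243).all fun k => (qWord.getD k []).all fun j => decide (j < 5)) = true := by
    decide +kernel
  refine wordOf_mem fun j hj => Subgroup.subset_closure ⟨⟨j, ?_⟩, rfl⟩
  simpa using List.all_eq_true.1 (List.all_eq_true.1 h k (List.mem_range.2 hk)) j hj

theorem uel_mem {k : ℕ} (hk : k < 81) : uel k ∈ Us := by
  have h : ((List.range 81).all fun k => (uWord.getD k []).all fun j => decide (j < 2)) = true := by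
    decide +kernel
  refine wordOf_mem fun j hj => Subgroup.subset_closure ⟨⟨j, ?_⟩, rfl⟩
  simpa using List.all_eq_true.1 (List.all_eq_true.1 h k (List.mem_range.2 hk)) j hj

theorem gen_normalizes {k : ℕ} (hk : k = 1 ∨ k = 2 ∨ k = 4 ∨ k = 5) :
    gen k ∈ Subgroup.normalizer (Qs : Set O7) := by
  have h : (qConj.all fun p => (List.range 5).all fun j => decide (p.2.getD j 0 < 243) &&
      decide ((genTab.getD p.1 eye).mul (qGens.getD j eye) =
        (qTab.getD (p.2.getD j 0) eye).mul (genTab.getD p.1 eye))) = true := by decide +kernel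
  have hmem : ∃ l, (k, l) ∈ qConj := by
    rcases hk with rfl | rfl | rfl | rfl <;> simp [qConj]
  obtain ⟨l, hl⟩ := hmem
  have hle : Qs.map (MulAut.conj (gen k)).toMonoidHom ≤ Qs := by
    rw [Qs, MonoidHom.map_closure, Subgroup.closure_le]
    rintro _ ⟨_, ⟨j, rfl⟩, rfl⟩
    have := List.all_eq_true.1 (List.all_eq_true.1 h _ hl) j (List.mem_range.2 j.isLt)
    simp only [Bool.and_eq_true, decide_eq_true_eq] at this
    change gen k * qg j * (gen k)⁻¹ ∈ Qs
    rw [eq_of_mat (mat_mul_toM (mat_gen k) (mat_qg j)) (mat_mul_toM (mat_qel _) (mat_gen k)) this.2,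
      mul_inv_cancel_right]
    exact qel_mem this.1
  have heq : Qs.map (MulAut.conj (gen k)).toMonoidHom = Qs :=
    Subgroup.eq_of_le_of_card_ge hle
      (Subgroup.card_map_of_injective (MulAut.conj (gen k)).injective).ge
  rw [Subgroup.mem_normalizer_iff]
  intro x
  constructor
  · intro hx
    exact hle (Subgroup.mem_map_of_mem _ hx)
  · intro hx
    rw [← heq] at hx
    obtain ⟨y, hy, e⟩ := hx
    exact (MulAut.conj (gen k)).injective e ▸ hy

theorem ug_normalizes (j : ℕ) : ug j ∈ Subgroup.normalizer (Qs : Set O7) := by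
  refine wordOf_mem fun k hk => gen_normalizes ?_
  rcases j with _ | _ | j <;> simp at hk <;> simp [hk]

theorem us_le : Us ≤ Subgroup.normalizer (Qs : Set O7) := by
  rw [Us, Subgroup.closure_le]
  rintro _ ⟨j, rfl⟩
  exact ug_normalizes j

/-- The Sylow three-subgroup. -/
def Sy : Subgroup O7 := Qs ⊔ Us

theorem exists_parts {x : O7} (hx : x ∈ Sy) : ∃ i < 243, ∃ j < 81, x = qel i * uel j := by
  have hx' : x ∈ (Qs : Set O7) * (Us : Set O7) := by
    rw [← Subgroup.coe_mul_of_right_le_normalizer_left Qs Us us_le]; exact hx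
  obtain ⟨q, hq, u, hu, rfl⟩ := hx'
  obtain ⟨i, hi, rfl⟩ := exists_qel hq
  obtain ⟨j, hj, rfl⟩ := exists_uel hu
  exact ⟨i, hi, j, hj, rfl⟩

theorem eq_one_of_both {x : O7} (hq : x ∈ Qs) (hu : x ∈ Us) : x = 1 := by
  obtain ⟨i, hi, rfl⟩ := exists_qel hq
  obtain ⟨j, hj, e⟩ := exists_uel hu
  have h1 : ((List.range 243).all fun i =>
      (List.finRange 7).any (fun r => decide (((qTab.getD i eye).get r 6 : K) ≠ (eye.get r 6 : K))) ||
        decide (qTab.getD i eye = eye)) = true := by decide +kernel
  have h2 : ((List.range 81).all fun j =>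
      (List.finRange 7).all (fun r => decide (((uTab.getD j eye).get r 6 : K) = (eye.get r 6 : K)))) = true := by
    decide +kernel
  have hm : (qTab.getD i eye).toM = (uTab.getD j eye).toM := by rw [← mat_qel, e, mat_uel]
  have hi' := List.all_eq_true.1 h1 i (List.mem_range.2 hi)
  rw [Bool.or_eq_true, decide_eq_true_eq, List.any_eq_true] at hi'
  rcases hi' with ⟨r, -, hr⟩ | hi'
  · refine absurd ?_ (of_decide_eq_true hr)
    have := congrFun (congrFun hm r) 6
    rw [toM_apply, toM_apply] at this
    rw [this]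
    exact of_decide_eq_true (List.all_eq_true.1 (List.all_eq_true.1 h2 j (List.mem_range.2 hj)) r
      (List.mem_finRange r))
  · exact eq_of_mat (mat_qel i) (by rw [map_one, toM_eye]) hi'

theorem qel_inj {i i' : ℕ} (hi : i < 243) (hi' : i' < 243) (h : qel i = qel i') : i = i' := by
  have hn : ((List.range 243).all fun i => (List.range i).all fun i' =>
      (List.finRange 7).any fun r => (List.finRange 7).any fun c =>
        decide (((qTab.getD i eye).get r c : K) ≠ ((qTab.getD i' eye).get r c : K))) = true := by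
    decide +kernel
  have key : ∀ a b, b < a → a < 243 → qel a ≠ qel b := by
    intro a b hab ha he
    have := List.all_eq_true.1 (List.all_eq_true.1 hn a (List.mem_range.2 ha)) b (List.mem_range.2 hab)
    simp only [List.any_eq_true, decide_eq_true_eq] at this
    obtain ⟨r, -, c, -, hrc⟩ := this
    exact hrc (congrFun (congrFun (by rw [← mat_qel, he, mat_qel] :
      (qTab.getD a eye).toM = (qTab.getD b eye).toM) r) c)
  rcases lt_trichotomy i i' with h' | h' | h'
  · exact absurd h.symm (key i' i h' hi')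
  · exact h'
  · exact absurd h (key i i' h' hi)

theorem uel_inj {i i' : ℕ} (hi : i < 81) (hi' : i' < 81) (h : uel i = uel i') : i = i' := by
  have hn : ((List.range 81).all fun i => (List.range i).all fun i' =>
      (List.finRange 7).any fun r => (List.finRange 7).any fun c =>
        decide (((uTab.getD i eye).get r c : K) ≠ ((uTab.getD i' eye).get r c : K))) = true := by
    decide +kernel
  have key : ∀ a b, b < a → a < 81 → uel a ≠ uel b := by
    intro a b hab ha he
    have := List.all_eq_true.1 (List.all_eq_true.1 hn a (List.mem_range.2 ha)) b (List.mem_range.2 hab)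
    simp only [List.any_eq_true, decide_eq_true_eq] at this
    obtain ⟨r, -, c, -, hrc⟩ := this
    exact hrc (congrFun (congrFun (by rw [← mat_uel, he, mat_uel] :
      (uTab.getD a eye).toM = (uTab.getD b eye).toM) r) c)
  rcases lt_trichotomy i i' with h' | h' | h'
  · exact absurd h.symm (key i' i h' hi')
  · exact h'
  · exact absurd h (key i i' h' hi)

theorem card_sy : Nat.card Sy = 3 ^ 9 := by
  let f : Fin 243 × Fin 81 → Sy := fun p => ⟨qel p.1 * uel p.2,
    Subgroup.mul_mem _ (Subgroup.mem_sup_left (qel_mem p.1.isLt)) (Subgroup.mem_sup_right (uel_mem p.2.isLt))⟩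
  have hf : Function.Bijective f := by
    constructor
    · rintro ⟨i, j⟩ ⟨i', j'⟩ h
      have h' : qel i * uel j = qel i' * uel j' := congrArg Subtype.val h
      have e : (qel i')⁻¹ * qel i = uel j' * (uel j)⁻¹ := by
        rw [eq_mul_inv_iff_mul_eq, mul_assoc, h', inv_mul_cancel_left]
      have h1 := eq_one_of_both (Subgroup.mul_mem _ (Subgroup.inv_mem _ (qel_mem i'.isLt)) (qel_mem i.isLt))
        (e ▸ Subgroup.mul_mem _ (uel_mem j'.isLt) (Subgroup.inv_mem _ (uel_mem j.isLt)))
      have ei : i = i' := Fin.ext (qel_inj i.isLt i'.isLt (inv_mul_eq_one.1 h1).symm)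
      subst ei
      exact Prod.ext rfl (Fin.ext (uel_inj j.isLt j'.isLt (mul_left_cancel h')))
    · rintro ⟨x, hx⟩
      obtain ⟨i, hi, j, hj, rfl⟩ := exists_parts hx
      exact ⟨(⟨i, hi⟩, ⟨j, hj⟩), rfl⟩
  rw [← Nat.card_eq_of_bijective f hf]
  simp

theorem sy_le : Sy ≤ Om := by
  refine sup_le ((Subgroup.closure_le _).2 ?_) ((Subgroup.closure_le _).2 ?_)
  · rintro _ ⟨j, rfl⟩
    exact qg_mem j
  · rintro _ ⟨j, rfl⟩
    exact wordOf_mem fun i _ => gen_mem i

theorem one_of_cube {q u : O7} (hq : q ∈ Qs) (hu : u ∈ Us) (h : (q * u) ^ 3 = 1) : u ^ 3 = 1 := by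
  refine eq_one_of_both ?_ (Subgroup.pow_mem _ hu 3)
  have hn := us_le hu
  have h1 : u * q * u⁻¹ ∈ Qs := (Subgroup.mem_normalizer_iff.1 hn q).1 hq
  have h2 : u * (u * q * u⁻¹) * u⁻¹ ∈ Qs := (Subgroup.mem_normalizer_iff.1 hn _).1 h1
  have e : (q * u) ^ 3 = q * (u * q * u⁻¹) * (u * (u * q * u⁻¹) * u⁻¹) * u ^ 3 := by
    simp only [pow_three]; group
  rw [e] at h
  rw [eq_inv_of_mul_eq_one_right h]
  exact Subgroup.inv_mem _ (Subgroup.mul_mem _ (Subgroup.mul_mem _ hq h1) h2)

theorem letr_normalizes {k : ℕ} (h : ∀ i ∈ letW.getD k [], i = 1 ∨ i = 2 ∨ i = 4 ∨ i = 5) :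
    letr k ∈ Subgroup.normalizer (Qs : Set O7) :=
  wordOf_mem fun i hi => gen_normalizes (h i hi)

theorem cube_conj {h g g' : O7} (e : h * g = g' * h) : g' ^ 3 = h * g ^ 3 * h⁻¹ := by
  have : g' = h * g * h⁻¹ := eq_mul_inv_of_mul_eq e.symm
  rw [this, conj_pow]

/-- Step one: the complement part becomes one of five elements. -/
theorem reduce_complement {x : O7} (hx : x ∈ Sy) (h3 : x ^ 3 = 1) :
    ∃ r < 5, ∃ k < 243, ∃ h ∈ Om, h * x = qel k * uel (uRep.getD r 0) * h := by
  obtain ⟨i, hi, j, hj, rfl⟩ := exists_parts hx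
  have hu3 := one_of_cube (qel_mem hi) (uel_mem hj) h3
  have ht : ((List.range 81).all fun j => match uCert.getD j none with
      | none => decide ((uTab.getD j eye).mul ((uTab.getD j eye).mul (uTab.getD j eye)) ≠ eye) &&
          (List.finRange 7).any (fun a => (List.finRange 7).any fun b => decide
            ((((uTab.getD j eye).mul ((uTab.getD j eye).mul (uTab.getD j eye))).get a b : K) ≠ (eye.get a b : K)))
      | some (r, w) => decide (r < 5) && (w.all fun k => (letW.getD k []).all fun i =>
          decide (i = 1 ∨ i = 2 ∨ i = 4 ∨ i = 5)) &&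
          decide ((evalWord letTab w).mul (uTab.getD j eye) =
            (uTab.getD (uRep.getD r 0) eye).mul (evalWord letTab w))) = true := by decide +kernel
  have := List.all_eq_true.1 ht j (List.mem_range.2 hj)
  rcases hc : uCert.getD j none with _ | ⟨r, w⟩
  · rw [hc] at this
    simp only [Bool.and_eq_true, List.any_eq_true, decide_eq_true_eq] at this
    obtain ⟨-, a, -, b, -, hab⟩ := this
    refine absurd ?_ hab
    have hm : ((uTab.getD j eye).mul ((uTab.getD j eye).mul (uTab.getD j eye))).toM = eye.toM := by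
      rw [← mat_mul_toM (mat_uel j) (mat_mul_toM (mat_uel j) (mat_uel j)),
        ← pow_three, hu3, map_one, toM_eye]
    exact congrFun (congrFun hm a) b
  · rw [hc] at this
    simp only [Bool.and_eq_true, List.all_eq_true, decide_eq_true_eq] at this
    obtain ⟨⟨hr, hw⟩, he⟩ := this
    have hn : lword w ∈ Subgroup.normalizer (Qs : Set O7) :=
      wordOf_mem fun k hk => letr_normalizes (hw k hk)
    obtain ⟨k, hk, ek⟩ := exists_qel ((Subgroup.mem_normalizer_iff.1 hn _).1 (qel_mem hi))
    have e2 : lword w * uel j = uel (uRep.getD r 0) * lword w :=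
      eq_of_mat (mat_mul_toM (mat_lword w) (mat_uel j)) (mat_mul_toM (mat_uel _) (mat_lword w)) he
    refine ⟨r, hr, k, hk, lword w, lword_mem w, ?_⟩
    rw [← ek, mul_assoc _ (uel (uRep.getD r 0)), ← e2]
    group

/-- Step two: the finitely many remaining elements. -/
theorem hasRep_sy {x : O7} (hx : x ∈ Sy) (h3 : x ^ 3 = 1) (h1 : x ≠ 1) : HasRep x := by
  obtain ⟨r, hr, k, hk, h, hh, e⟩ := reduce_complement hx h3
  set g := qel k * uel (uRep.getD r 0) with hg
  have hg3 : g ^ 3 = 1 := by rw [cube_conj e, h3]; group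
  have hg1 : g ≠ 1 := fun hg1 => h1 (by rw [hg1, one_mul] at e; exact mul_left_cancel (a := h) (by rw [e, mul_one]))
  have hmg : mat g = ((qTab.getD k eye).mul (uTab.getD (uRep.getD r 0) eye)).toM :=
    mat_mul_toM (mat_qel k) (mat_uel _)
  have ht : ((List.range 5).all fun r => (List.range 243).all fun k =>
      match (qCert.getD r []).getD k none with
      | none => (List.finRange 7).any (fun a => (List.finRange 7).any fun b => decide
            ((((qTab.getD k eye).mul (uTab.getD (uRep.getD r 0) eye)).mul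
              (((qTab.getD k eye).mul (uTab.getD (uRep.getD r 0) eye)).mul
                ((qTab.getD k eye).mul (uTab.getD (uRep.getD r 0) eye)))).get a b % 3 ≠ eye.get a b)) ||
          decide ((qTab.getD k eye).mul (uTab.getD (uRep.getD r 0) eye) = eye)
      | some (c, a) => decide (c < 314) && decide ((qTab.getD a eye).mul
          ((qTab.getD k eye).mul (uTab.getD (uRep.getD r 0) eye)) =
            (candTab.getD c eye).mul (qTab.getD a eye))) = true := by decide +kernel
  have hc : ((List.range 314).all fun c => decide ((candCert.getD c (0, [])).1 < 7) &&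
      decide ((evalWord letTab (candCert.getD c (0, [])).2).mul (candTab.getD c eye) =
        (repTab.getD (candCert.getD c (0, [])).1 eye).mul (evalWord letTab (candCert.getD c (0, [])).2))) = true := by
    decide +kernel
  have := List.all_eq_true.1 (List.all_eq_true.1 ht r (List.mem_range.2 hr)) k (List.mem_range.2 hk)
  rcases hq : (qCert.getD r []).getD k none with _ | ⟨c, a⟩
  · rw [hq] at this
    simp only [Bool.or_eq_true, List.any_eq_true, decide_eq_true_eq] at this
    rcases this with ⟨a, -, b, -, hab⟩ | he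
    · exfalso
      have hm : mat (g * (g * g)) = eye.toM := by
        rw [← pow_three, hg3, map_one, toM_eye]
      rw [mat_mul_toM hmg (mat_mul_toM hmg hmg)] at hm
      have hcast := congrFun (congrFun hm a) b
      rw [toM_apply, toM_apply, ZMod.natCast_eq_natCast_iff'] at hcast
      exact hab (hcast.trans (by fin_cases a <;> fin_cases b <;> rfl))
    · exact absurd (eq_of_mat hmg (by rw [map_one, toM_eye]) he) hg1
  · rw [hq] at this
    simp only [Bool.and_eq_true, decide_eq_true_eq] at this
    obtain ⟨hc', he⟩ := this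
    have hcc := List.all_eq_true.1 hc c (List.mem_range.2 hc')
    simp only [Bool.and_eq_true, decide_eq_true_eq] at hcc
    obtain ⟨hi, hw⟩ := hcc
    set i := (candCert.getD c (0, [])).1
    set w := (candCert.getD c (0, [])).2
    refine ⟨i, hi, lword w * qel a * h, mul_mem (mul_mem (lword_mem w) (qel_mem_om a)) hh, ?_⟩
    have e2 : lword w * qel a * g = rep i * (lword w * qel a) := by
      refine mat_injective ?_
      simp only [map_mul, mat_lword, mat_qel, mat_rep, mat_uel, hg]
      calc _ = (evalWord letTab w).toM * ((candTab.getD c eye).toM * (qTab.getD a eye).toM) := by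
            rw [← toM_mul (candTab.getD c eye), ← he, toM_mul, toM_mul, Matrix.mul_assoc]
        _ = _ := by
            rw [← Matrix.mul_assoc, ← toM_mul, hw, toM_mul, Matrix.mul_assoc]
    rw [mul_assoc, e, ← mul_assoc, e2, mul_assoc, mul_assoc]

/-- Every element of order three of Ω₇(3) is conjugate to a representative. -/
theorem hasRep_of_cube {x : O7} (hx : x ∈ Om) (h3 : x ^ 3 = 1) (h1 : x ≠ 1) : HasRep x := by
  haveI : Fact (Nat.Prime 3) := ⟨Nat.prime_three⟩
  let U : Subgroup Om := Sy.subgroupOf Om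
  have hcU : Nat.card U = 3 ^ 9 := by
    rw [Nat.card_congr (Subgroup.subgroupOfEquivOfLe sy_le).toEquiv, card_sy]
  have hom : Nat.card Om = 3 ^ 9 * (2 * 8 * 20 * 728) := by
    have := Subgroup.index_mul_card Om
    rw [om_index, card_o7] at this
    omega
  have hidx : ¬ 3 ∣ U.index := by
    have := Subgroup.index_mul_card U
    rw [hcU, hom, mul_comm (U.index)] at this
    rw [Nat.eq_of_mul_eq_mul_left (by norm_num) this]
    norm_num
  let P : Sylow 3 Om := (IsPGroup.of_card hcU).toSylow hidx
  have hxP : IsPGroup 3 (Subgroup.zpowers (⟨x, hx⟩ : Om)) := by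
    refine IsPGroup.of_card (n := 1) ?_
    rw [Nat.card_zpowers, orderOf_eq_prime (Subtype.ext h3) (fun h => h1 (congrArg Subtype.val h)), pow_one]
  obtain ⟨R, hR⟩ := hxP.exists_le_sylow
  obtain ⟨c, hc⟩ := MulAction.exists_smul_eq Om R P
  have hmem : c * ⟨x, hx⟩ * c⁻¹ ∈ (P : Subgroup Om) := by
    have hxR : (⟨x, hx⟩ : Om) ∈ (R : Subgroup Om) := hR (Subgroup.mem_zpowers _)
    rw [← hc]
    exact Subgroup.mem_map_of_mem _ hxR
  have hy : (c : O7) * x * (c : O7)⁻¹ ∈ Sy := Subgroup.mem_subgroupOf.1 hmem
  have hy3 : ((c : O7) * x * (c : O7)⁻¹) ^ 3 = 1 := by rw [conj_pow, h3]; group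
  have hy1 : (c : O7) * x * (c : O7)⁻¹ ≠ 1 := fun h => h1 (conj_eq_one_iff.1 h)
  obtain ⟨i, hi, h, hh, e⟩ := hasRep_sy hy hy3 hy1
  refine ⟨i, hi, h * c, mul_mem hh c.2, ?_⟩
  calc h * (c : O7) * x = h * ((c : O7) * x * (c : O7)⁻¹) * c := by group
    _ = rep i * (h * c) := by rw [e, mul_assoc]

end Cfsg.Agent.TwoGroups.OmegaSevenThree
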