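import Cfsg.Agent.TwoGroups.OmegaSevenThree.Group
import Cfsg.Agent.TwoGroups.OmegaSevenThree.Data

/-!
# Words in root elements of Ω₇(3)
-/

set_option autoImplicit false
set_option maxRecDepth 20000

namespace Cfsg.Agent.TwoGroups.OmegaSevenThree

open Matrix

/-- `genTab` as group elements. -/
def gen (k : ℕ) : O7 :=
  if h : IsIsom (genTab.getD k eye) ∧
      (genTab.getD k eye).mul ((genTab.getD k eye).mul (genTab.getD k eye)) = eye then
    ofThree _ h.1 h.2
  else 1

theorem genTab_ok (k : ℕ) : IsIsom (genTab.getD k eye) ∧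
    (genTab.getD k eye).mul ((genTab.getD k eye).mul (genTab.getD k eye)) = eye := by
  by_cases hk : k < 6
  · have h : (List.range 6).all (fun k => decide (IsIsom (genTab.getD k eye)) &&
        decide ((genTab.getD k eye).mul ((genTab.getD k eye).mul (genTab.getD k eye)) = eye)) = true := by
      decide +kernel
    have := List.all_eq_true.1 h k (List.mem_range.2 hk)
    simpa using this
  · have hl : genTab.length = 6 := by decide +kernel
    rw [List.getD_eq_default _ _ (by omega)]
    decide +kernel

theorem mat_gen (k : ℕ) : mat (gen k) = (genTab.getD k eye).toM := by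
  rw [gen, dif_pos (genTab_ok k), mat_ofThree]

theorem eq_of_mat {a b : O7} {A B : M7} (ha : mat a = A.toM) (hb : mat b = B.toM) (h : A = B) : a = b :=
  mat_injective (by rw [ha, hb, h])

theorem mat_mul_toM {a b : O7} {A B : M7} (ha : mat a = A.toM) (hb : mat b = B.toM) :
    mat (a * b) = (A.mul B).toM := by
  rw [map_mul, ha, hb, toM_mul]

theorem gen_cube (k : ℕ) : gen k ^ 3 = 1 := by
  rw [pow_succ', pow_two]
  exact eq_of_mat (mat_mul_toM (mat_gen k) (mat_mul_toM (mat_gen k) (mat_gen k)))
    (by rw [map_one, toM_eye]) (genTab_ok k).2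

theorem gen_mem (k : ℕ) : gen k ∈ Om := mem_om_of_cube (gen_cube k)

/-- The product of a word. -/
def wordOf (T : ℕ → O7) (w : List ℕ) : O7 := (w.map T).prod

theorem wordOf_mem {H : Subgroup O7} {T : ℕ → O7} {w : List ℕ} (h : ∀ k ∈ w, T k ∈ H) :
    wordOf T w ∈ H :=
  Subgroup.list_prod_mem _ fun x hx => by
    obtain ⟨k, hk, rfl⟩ := List.mem_map.1 hx
    exact h k hk

theorem mat_wordOf {T : ℕ → O7} {Tab : List M7} (h : ∀ k, mat (T k) = (Tab.getD k eye).toM) (w : List ℕ) :
    mat (wordOf T w) = (evalWord Tab w).toM := by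
  induction w with
  | nil => simp [wordOf, evalWord, toM_eye]
  | cons k w ih =>
    have : evalWord Tab (k :: w) = (Tab.getD k eye).mul (evalWord Tab w) := rfl
    rw [this, wordOf, List.map_cons, List.prod_cons]
    exact mat_mul_toM (h k) ih

theorem getD_words {Tab X : List M7} {W : List (List ℕ)} (h : X = W.map (evalWord Tab)) (k : ℕ) :
    X.getD k eye = evalWord Tab (W.getD k []) := by
  subst h
  rw [show eye = evalWord Tab [] from rfl, List.getD_map]

theorem mat_tabled {T : ℕ → O7} {Tab X : List M7} {W : List (List ℕ)}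
    (h : ∀ k, mat (T k) = (Tab.getD k eye).toM) (hX : X = W.map (evalWord Tab)) (k : ℕ) :
    mat (wordOf T (W.getD k [])) = (X.getD k eye).toM := by
  rw [getD_words hX, mat_wordOf h]

/-- Frequently used products of root elements. -/
def letr (k : ℕ) : O7 := wordOf gen (letW.getD k [])

theorem mat_letr (k : ℕ) : mat (letr k) = (letTab.getD k eye).toM :=
  mat_tabled mat_gen (by decide +kernel) k

theorem letr_mem (k : ℕ) : letr k ∈ Om := wordOf_mem fun i _ => gen_mem i

/-- A word in `letr`. -/
def lword (w : List ℕ) : O7 := wordOf letr w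

theorem mat_lword (w : List ℕ) : mat (lword w) = (evalWord letTab w).toM := mat_wordOf mat_letr w

theorem lword_mem (w : List ℕ) : lword w ∈ Om := wordOf_mem fun i _ => letr_mem i

/-- The seven representatives. -/
def rep (i : ℕ) : O7 := wordOf gen (repWord.getD i [])

theorem mat_rep (i : ℕ) : mat (rep i) = (repTab.getD i eye).toM :=
  mat_tabled mat_gen (by decide +kernel) i

theorem rep_mem (i : ℕ) : rep i ∈ Om := wordOf_mem fun k _ => gen_mem k

/-- `g` is conjugate in Ω₇(3) to a representative. -/
def HasRep (g : O7) : Prop := ∃ i < 7, ∃ h ∈ Om, h * g = rep i * h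

theorem rep_cube {i : ℕ} (hi : i < 7) : rep i ^ 3 = 1 ∧ rep i ≠ 1 := by
  have h : (List.range 7).all (fun i => decide ((repTab.getD i eye).mul ((repTab.getD i eye).mul
      (repTab.getD i eye)) = eye) && decide (repTab.getD i eye ≠ eye)) = true := by decide +kernel
  have := List.all_eq_true.1 h i (List.mem_range.2 hi)
  simp only [Bool.and_eq_true, decide_eq_true_eq] at this
  refine ⟨?_, fun h1 => ?_⟩
  · rw [pow_succ', pow_two]
    exact eq_of_mat (mat_mul_toM (mat_rep i) (mat_mul_toM (mat_rep i) (mat_rep i)))
      (by rw [map_one, toM_eye]) this.1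
  · refine this.2 ?_
    have hm : (repTab.getD i eye).toM = eye.toM := by rw [← mat_rep, h1, map_one, toM_eye]
    have hall : (List.range 7).all (fun i => decide ((repTab.getD i eye).toM ≠ eye.toM)) = true := by
      decide +kernel
    exact absurd hm (by simpa using List.all_eq_true.1 hall i (List.mem_range.2 hi))

theorem rep_square {i : ℕ} (hi : i < 7) : ∃ h ∈ Om, h * (rep i * rep i) = rep i * h := by
  have h : (List.range 7).all (fun i => decide ((evalWord letTab (repSquare.getD i [])).mul
      ((repTab.getD i eye).mul (repTab.getD i eye)) =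
        (repTab.getD i eye).mul (evalWord letTab (repSquare.getD i [])))) = true := by decide +kernel
  have := List.all_eq_true.1 h i (List.mem_range.2 hi)
  simp only [decide_eq_true_eq] at this
  exact ⟨lword (repSquare.getD i []), lword_mem _,
    eq_of_mat (mat_mul_toM (mat_lword _) (mat_mul_toM (mat_rep i) (mat_rep i)))
      (mat_mul_toM (mat_rep i) (mat_lword _)) this⟩

end Cfsg.Agent.TwoGroups.OmegaSevenThree
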