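import Cfsg.Agent.TwoGroups.OmegaSevenThree.Mat
import Cfsg.Agent.Forms.OrthCard
import Cfsg.Agent.Forms.QuadOrder
import Cfsg.Agent.Linear.SpinorList

/-!
# The isometry group of `x₀² + ∑ xᵢ yᵢ` over the field of three elements, in coordinates
-/

set_option autoImplicit false

namespace Cfsg.Agent.TwoGroups.OmegaSevenThree

open Cfsg Matrix Cfsg.Agent

abbrev K := ZMod 3
abbrev I7 := Unit ⊕ (Fin 3 ⊕ Fin 3)
abbrev Qd : QuadraticForm K (I7 → K) := Forms.qOdd 3 K
abbrev O7 := Cfsg.isometryGroup K ⇑Qd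
abbrev Om : Subgroup O7 := Cfsg.Omega K ⇑Qd

/-- The coordinate order `e₁ e₂ e₃ x₀ f₃ f₂ f₁`. -/
def ixE : I7 ≃ Fin 7 where
  toFun := Sum.elim (fun _ => 3) (Sum.elim ![0, 1, 2] ![6, 5, 4])
  invFun := ![Sum.inr (Sum.inl 0), Sum.inr (Sum.inl 1), Sum.inr (Sum.inl 2), Sum.inl (),
    Sum.inr (Sum.inr 2), Sum.inr (Sum.inr 1), Sum.inr (Sum.inr 0)]
  left_inv := by decide
  right_inv := by decide

/-- The matrix of an element, in coordinates. -/
def mat : O7 →* Matrix (Fin 7) (Fin 7) K where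
  toFun g := ((g : GL I7 K) : Matrix I7 I7 K).submatrix ixE.symm ixE.symm
  map_one' := by simp
  map_mul' g h := by simp [Matrix.submatrix_mul_equiv]

theorem mat_apply (g : O7) :
    mat g = ((g : GL I7 K) : Matrix I7 I7 K).submatrix ixE.symm ixE.symm := rfl

theorem mat_injective : Function.Injective mat := by
  intro g h e
  refine Subtype.ext (Units.ext ?_)
  have := congrArg (fun X : Matrix (Fin 7) (Fin 7) K => X.submatrix ixE ixE) e
  simpa [mat_apply, Matrix.submatrix_submatrix] using this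

theorem mat_mulVec (g : O7) (v : I7 → K) :
    mat g *ᵥ (v ∘ ixE.symm) = (((g : GL I7 K) : Matrix I7 I7 K) *ᵥ v) ∘ ixE.symm := by
  rw [mat_apply, Matrix.submatrix_mulVec_equiv]
  congr 2
  funext i
  simp

theorem quad_eq (v : I7 → K) :
    Qd v = 2 * ((v ∘ ixE.symm) ⬝ᵥ (gram.toM *ᵥ (v ∘ ixE.symm))) := by
  have h : ∀ a b c d e f g : K,
      d * d + (a * g + (b * f + c * e)) =
        2 * (a * g + (b * f + (c * e + (d * (2 * d) + (e * c + (f * b + g * a)))))) := by
    intro a b c d e f g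
    linear_combination (-(a * g) - b * f - c * e - d * d) * (by decide : (3 : K) = 0)
  rw [show Qd v = Cfsg.quadFormOdd 3 K v from congrFun (Forms.coe_qOdd (m := 3) (F := K)) v]
  simp only [dotProduct, Matrix.mulVec, Fin.sum_univ_seven, Fin.sum_univ_three,
    Cfsg.quadFormOdd, Function.comp, sq]
  simp [toM_apply, gram, M7.get, M7.row, R7.get, ixE]
  linear_combination h (v (.inr (.inl 0))) (v (.inr (.inl 1))) (v (.inr (.inl 2))) (v (.inl ()))
    (v (.inr (.inr 2))) (v (.inr (.inr 1))) (v (.inr (.inr 0)))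

theorem dot_sym {n : Type*} [Fintype n] (M G : Matrix n n K) (w : n → K) :
    (M *ᵥ w) ⬝ᵥ (G *ᵥ (M *ᵥ w)) = w ⬝ᵥ ((M.transpose * G * M) *ᵥ w) := by
  rw [Matrix.mul_assoc, ← Matrix.mulVec_mulVec, ← Matrix.mulVec_mulVec,
    Matrix.dotProduct_mulVec w M.transpose, Matrix.vecMul_transpose]

/-- An isometry preserves the Gram matrix. -/
theorem gram_of_mem (g : O7) : (mat g).transpose * gram.toM * mat g = gram.toM := by
  set X := (mat g).transpose * gram.toM * mat g with hX
  have hv : ∀ w : Fin 7 → K, w ⬝ᵥ (X *ᵥ w) = w ⬝ᵥ (gram.toM *ᵥ w) := by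
    intro w
    have h := g.2 (w ∘ ixE) (w ∘ ixE)
    change Qd (((g : GL I7 K) : Matrix I7 I7 K) *ᵥ (w ∘ ixE)) = Qd (w ∘ ixE) at h
    rw [quad_eq, quad_eq, ← mat_mulVec, dot_sym] at h
    have e : (w ∘ ixE) ∘ ixE.symm = w := by funext i; simp
    rw [e] at h
    exact mul_left_cancel₀ (by decide) h
  have hg : gram.toM.transpose = gram.toM := by rw [← toM_transpose]; rfl
  have hs : ∀ i j, X i j = X j i := by
    intro i j
    have : X.transpose = X := by
      rw [hX, Matrix.transpose_mul, Matrix.transpose_mul, Matrix.transpose_transpose, hg, Matrix.mul_assoc]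
    exact (congrFun (congrFun this j) i)
  have hgs : ∀ i j, gram.toM i j = gram.toM j i := fun i j => congrFun (congrFun hg.symm i) j
  have hd : ∀ i, X i i = gram.toM i i := fun i => by simpa using hv (Pi.single i 1)
  ext i j
  have h := hv (Pi.single i 1 + Pi.single j 1)
  simp [Matrix.mulVec_add, add_dotProduct, dotProduct_add, hd, hs j i, hgs j i] at h
  linear_combination (2 : K) * h + (gram.toM i j - X i j) * (by decide : (3 : K) = 0)

/-- A table matrix preserving the form. -/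
def IsIsom (A : M7) : Prop := A.transpose.mul (gram.mul A) = gram

instance (A : M7) : Decidable (IsIsom A) := inferInstanceAs (Decidable (_ = _))

theorem mul_self_mul_self {A : M7} (h3 : A.mul (A.mul A) = eye) :
    (A.toM.submatrix ixE ixE) * ((A.toM * A.toM).submatrix ixE ixE) = 1 ∧
      ((A.toM * A.toM).submatrix ixE ixE) * (A.toM.submatrix ixE ixE) = 1 := by
  have h : A.toM * (A.toM * A.toM) = 1 := by rw [← toM_mul, ← toM_mul, h3, toM_eye]
  constructor <;> rw [Matrix.submatrix_mul_equiv]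
  · rw [h]; simp
  · rw [Matrix.mul_assoc, h]; simp

theorem iso_of_gram {A : M7} (hA : IsIsom A) (v : I7 → K) :
    Qd (A.toM.submatrix ixE ixE *ᵥ v) = Qd v := by
  have e : (A.toM.submatrix ixE ixE *ᵥ v) ∘ ixE.symm = A.toM *ᵥ (v ∘ ixE.symm) := by
    rw [Matrix.submatrix_mulVec_equiv]
    funext i
    simp
  have hg : A.toM.transpose * gram.toM * A.toM = gram.toM := by
    rw [Matrix.mul_assoc, ← toM_mul, ← toM_transpose, ← toM_mul, hA]
  rw [quad_eq, quad_eq, e, dot_sym, hg]

/-- The element of a table matrix of order dividing three. -/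
def ofThree (A : M7) (hA : IsIsom A) (h3 : A.mul (A.mul A) = eye) : O7 :=
  ⟨⟨A.toM.submatrix ixE ixE, (A.toM * A.toM).submatrix ixE ixE, (mul_self_mul_self h3).1,
    (mul_self_mul_self h3).2⟩, fun v _ => iso_of_gram hA v⟩

theorem mat_ofThree (A : M7) (hA : IsIsom A) (h3 : A.mul (A.mul A) = eye) :
    mat (ofThree A hA h3) = A.toM := by
  simp [mat_apply, ofThree, Matrix.submatrix_submatrix]

theorem mul_self_one {A : M7} (h2 : A.mul A = eye) :
    (A.toM.submatrix ixE ixE) * (A.toM.submatrix ixE ixE) = 1 := by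
  rw [Matrix.submatrix_mul_equiv, ← toM_mul, h2, toM_eye]; simp

/-- The element of a table matrix of order dividing two. -/
def ofTwo (A : M7) (hA : IsIsom A) (h2 : A.mul A = eye) : O7 :=
  ⟨⟨A.toM.submatrix ixE ixE, A.toM.submatrix ixE ixE, mul_self_one h2, mul_self_one h2⟩,
    fun v _ => iso_of_gram hA v⟩

theorem mat_ofTwo (A : M7) (hA : IsIsom A) (h2 : A.mul A = eye) : mat (ofTwo A hA h2) = A.toM := by
  simp [mat_apply, ofTwo, Matrix.submatrix_submatrix]

theorem qd_nondegenerate : (QuadraticMap.polarBilin Qd).Nondegenerate :=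
  Forms.qOdd_nondegenerate (by decide)

theorem finrank_I7 : Module.finrank K (I7 → K) = 7 := by simp

theorem om_index : Om.index = 4 := by
  rw [Forms.omega_index]
  exact (Forms.commutator_eq_ker (by decide) qd_nondegenerate (by rw [finrank_I7]; norm_num)).2

theorem mem_om_of_pow {g : O7} {n : ℕ} (hn : n.Coprime 4) (h : g ^ n = 1) : g ∈ Om := by
  have h4 : Nat.card (O7 ⧸ Om) = 4 := om_index
  have h1 : orderOf (g : O7 ⧸ Om) ∣ n := orderOf_dvd_of_pow_eq_one (by
    rw [← QuotientGroup.mk_pow, h]; rfl)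
  have h2 : orderOf (g : O7 ⧸ Om) ∣ 4 := h4 ▸ orderOf_dvd_natCard _
  have := orderOf_eq_one_iff.1 (Nat.eq_one_of_dvd_coprimes hn h1 h2)
  exact (QuotientGroup.eq_one_iff g).1 this

theorem mem_om_of_cube {g : O7} (h : g ^ 3 = 1) : g ∈ Om := mem_om_of_pow (by norm_num) h

theorem card_o7 : Nat.card O7 = 2 * 3 ^ 9 * (8 * 80 * 728) := by
  show Nat.card (Cfsg.isometryGroup K ⇑(Forms.qOdd 3 K)) = _
  rw [Forms.coe_qOdd, Forms.card_isometryGroup_odd 3 (q := 3) (by simp) (by decide)]
  simp [Finset.prod_range_succ]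

theorem center_om : Subgroup.center ↥Om = ⊥ := by
  rw [← Subgroup.card_eq_one, Forms.card_center_omega_congr]
  exact Forms.card_center_omega_odd qd_nondegenerate (by rw [finrank_I7]) (by decide)
    (by rw [finrank_I7]; decide)

end Cfsg.Agent.TwoGroups.OmegaSevenThree
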